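import Cfsg.Agent.H761.JM.P
import Cfsg.Agent.H265.JM.EQOrb

/-!
# Identification of the representatives of the A4-subgroups of `J4`
-/

set_option autoImplicit false
set_option maxRecDepth 20000

open Cfsg

namespace Cfsg.Agent.H761.JM

open Cfsg.Agent.J4.M24Hom Cfsg.Agent.J4.Nodes Cfsg.Agent.J4.Pres Cfsg.Agent.J4.Classes
open Cfsg.Agent.J4.Beta Cfsg.Agent.J4.ClassesData Cfsg.Agent.J4.Invol Cfsg.Agent.J4.ClassesAbs
open Cfsg.Agent.J4.Rep112
open Cfsg.Agent.H858.VK Cfsg.Agent.H858.Data Cfsg.Agent.H858 Cfsg.Agent.Lib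
open Cfsg.Agent.H878.JM.Base
open Cfsg.Agent.Lib.F2MatGroup

local notation "𝒢" => Cfsg.Spor.J4

/-- word of a vector in `LJ` -/
abbrev bj (v : ℕ) : List ℕ := bw 11 19 v

/-- conjugating element for `V 51` -/
def W3 : List ℕ := [14, 12, 13, 14, 12, 14, 12, 14, 13, 14, 13]
/-- conjugating element for `V 170` -/
def W5 : List ℕ := [12, 14, 13, 12, 14, 12, 14, 13, 12, 13, 14, 13]

/-- equations -/
def esG : List (List ℕ × List ℕ) := [
  ([18], w0.map (32 + ·)),
  (15 :: (w1.map (32 + ·) ++ [16]), [18]),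
  ([8], bj 972), ([7], bj 1661),
  ([2], 15 :: (bj 6 ++ [16])), ([1], 15 :: (bj 226 ++ [16])),
  (W3 ++ 15 :: (bj 51 ++ [16]), 6 :: W3), (W3 ++ [18], 18 :: W3),
  (W5 ++ 15 :: (bj 170 ++ [16]), 4 :: W5), (W5 ++ [18], 18 :: W5)]

theorem checkG : run 112 slpJ codes (fun L => eqs 112 esG L) = true := by decide +kernel

theorem soundG : ∀ p ∈ esG, evG LJ p.1 = evG LJ p.2 := by
  obtain ⟨L', h', hk⟩ := run_env checkG
  intro p hp
  apply rho_injective
  rw [← evG_map, ← evG_map]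
  exact eqs_sound h' hk p hp

theorem eG {a b : List ℕ} (h : (a, b) ∈ esG) : evG LJ a = evG LJ b := soundG _ h

theorem evG_bj (v : ℕ) : evG LJ (bj v) = V v := by
  have h0 : ∀ i < 11, getG LJ (19 + i) = lJ.getD i 1 := fun i hi =>
    Cfsg.Agent.H265.JM.EQ.getG_LJ hi
  have h := evG_bw LJ lJ 19 v (by rw [lJ_length]; exact h0)
  rwa [lJ_length] at h

theorem evG_phi {w : List ℕ} (hw : ∀ i ∈ w, i < 3) :
    evG LJ (w.map (32 + ·)) = phi (wordG w) := by
  rw [evG_shift (L' := [x, y, y⁻¹]), Cfsg.Agent.H265.JM.EQ.ev_phi hw]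
  intro i hi
  have h3 : i = 0 ∨ i = 1 ∨ i = 2 := by have := hw i hi; omega
  rcases h3 with rfl | rfl | rfl <;> rfl

theorem getG_inv : getG LJ 15 * g0 = 1 := by
  have h := sound.1 ([16, 15], []) (by decide)
  have h2 : g0 * getG LJ 15 = 1 := by
    have h1 := h
    rw [evG_cons, ev1, evG_nil] at h1
    exact h1
  exact mul_eq_one_comm.1 h2

theorem getG_15 : getG LJ 15 = g0⁻¹ := eq_inv_of_mul_eq_one_left getG_inv

theorem y0_eq : y0 = phi k0 := by
  have h := eG (a := [18]) (b := w0.map (32 + ·)) (by unfold esG; simp)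
  rw [evG_phi (by decide)] at h
  rw [← show evG LJ [18] = y0 from ev1 18, h]; rfl

theorem k1_eq : g0⁻¹ * phi k1 * g0 = y0 := by
  have h := eG (a := 15 :: (w1.map (32 + ·) ++ [16])) (b := [18]) (by unfold esG; simp)
  rw [evG_cons, evG_append, evG_phi (by decide), getG_15, ev1, ev1, ← mul_assoc] at h
  exact h

theorem v1_eq : v1 = V 972 := by
  have h := eG (a := [8]) (b := bj 972) (by unfold esG; simp)
  rw [evG_bj, ev1] at h; exact h

theorem v2_eq : v2 = V 1661 := by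
  have h := eG (a := [7]) (b := bj 1661) (by unfold esG; simp)
  rw [evG_bj, ev1] at h; exact h

theorem v7_eq : v7 = g0⁻¹ * V 6 * g0 := by
  have h := eG (a := [2]) (b := 15 :: (bj 6 ++ [16])) (by unfold esG; simp)
  rw [ev1, evG_cons, evG_append, evG_bj, getG_15, ev1, ← mul_assoc] at h; exact h

theorem v8_eq : v8 = g0⁻¹ * V 226 * g0 := by
  have h := eG (a := [1]) (b := 15 :: (bj 226 ++ [16])) (by unfold esG; simp)
  rw [ev1, evG_cons, evG_append, evG_bj, getG_15, ev1, ← mul_assoc] at h; exact h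

theorem v3_conj : ∃ c, c * y0 = y0 * c ∧ c * (g0⁻¹ * V 51 * g0) = v3 * c := by
  refine ⟨evG LJ W3, ?_, ?_⟩
  · have h := eG (a := W3 ++ [18]) (b := 18 :: W3) (by unfold esG; simp)
    rw [evG_append, ev1, evG_cons] at h; exact h
  · have h := eG (a := W3 ++ 15 :: (bj 51 ++ [16])) (b := 6 :: W3) (by unfold esG; simp)
    rw [evG_append, evG_cons, evG_append, evG_bj, getG_15, ev1, evG_cons] at h
    rw [mul_assoc g0⁻¹]; exact h

theorem v5_conj : ∃ c, c * y0 = y0 * c ∧ c * (g0⁻¹ * V 170 * g0) = v5 * c := by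
  refine ⟨evG LJ W5, ?_, ?_⟩
  · have h := eG (a := W5 ++ [18]) (b := 18 :: W5) (by unfold esG; simp)
    rw [evG_append, ev1, evG_cons] at h; exact h
  · have h := eG (a := W5 ++ 15 :: (bj 170 ++ [16])) (b := 4 :: W5) (by unfold esG; simp)
    rw [evG_append, evG_cons, evG_append, evG_bj, getG_15, ev1, evG_cons] at h
    rw [mul_assoc g0⁻¹]; exact h

end Cfsg.Agent.H761.JM
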